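import Mathlib
import Cfsg.Agent.H198.NFCrit
import Cfsg.Agent.H198.NFPol
import Cfsg.Agent.S0814
import Cfsg.Agent.S0816
import Cfsg.Agent.S0270
import Cfsg.Agent.S0295

/-!
# S5773: the rows `PSp_2m(q)`, `m ≥ 3`, and `PΩ_(2m+1)(q)` (helper198)
-/

set_option autoImplicit false

namespace Cfsg.Agent.H198.NFC

open Module Cfsg.Agent.H518.Dghp Cfsg.Agent.H518.DghpSep Cfsg.Agent.H518.DghpPrim Cfsg.Agent.H518.DghpFix
  Cfsg.Agent.H518.DghpMat Cfsg.Agent.H176.NF

section

variable {F : Type} [Field F] [Fintype F]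

theorem exists_pf (F : Type) [Field F] [Fintype F] : ∃ p f : ℕ, p.Prime ∧ 1 ≤ f ∧ Fintype.card F = p ^ f := by
  obtain ⟨p, hp⟩ := CharP.exists F
  obtain ⟨n, hprime, hcard⟩ := FiniteField.card F p
  exact ⟨p, n, hprime, n.2, hcard⟩

/-- The conditions on two primitive primes of degrees `2 m`, `2 (m - 1)`. -/
theorem sep_pair {G : Type} [Group G] [Finite G] {ι : Type} [Fintype ι] [DecidableEq ι] {φ : G →* Matrix ι ι F}
    (hφ : Function.Injective φ) {m r s : ℕ} (hm : 3 ≤ m) (hι : Fintype.card ι ≤ 2 * m + 1) (hr : r.Prime) (hs : s.Prime)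
    (he : orderOf ((Fintype.card F : ℕ) : ZMod r) = 2 * m) (hf : orderOf ((Fintype.card F : ℕ) : ZMod s) = 2 * (m - 1)) :
    Sep G r s := by
  have hrn := lt_prime hr he (by omega)
  have hsn := lt_prime hs hf (by omega)
  refine sep_linear (matRep φ) (matRep_injective hφ) hr hs (not_dvd_of_orderOf hr he (by omega))
    (not_dvd_of_orderOf hs hf (by omega)) he hf finrank_pi_fin (by omega) (by omega) ?_ ?_ ?_ ?_
  · intro h
    have h1 : 2 * (m - 1) ∣ 2 * m - 2 * (m - 1) := Nat.dvd_sub h dvd_rfl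
    have h2 : 2 * m - 2 * (m - 1) = 2 := by omega
    rw [h2] at h1
    have := Nat.le_of_dvd two_pos h1
    omega
  · intro h
    have h1 : s ∣ m := by
      rcases (Nat.Prime.dvd_mul hs).1 h with h' | h'
      · have := Nat.le_of_dvd two_pos h'
        omega
      · exact h'
    have := Nat.le_of_dvd (by omega) h1
    omega
  · intro h
    have := Nat.le_of_dvd (by omega) h
    omega
  · calc Fintype.card ι ≤ 2 * m + 1 := hι
      _ < r * 2 := by omega
      _ ≤ r * (2 * (m - 1)) := Nat.mul_le_mul_left r (by omega)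

end

/-- **Row `PSp_2m(q)`, `m ≥ 3`.** -/
theorem psp (hB : BdOfUnip) (hA : AnisoForm) (hW : WittOneForm) (F : Type) [Field F] [Fintype F] (m : ℕ)
    (hm : 3 ≤ m) (h2 : ¬ (Fintype.card F = 2 ∧ m ≤ 4)) : NF (Cfsg.PSp m F) := by
  obtain ⟨p, f, hp, hf, hF⟩ := exists_pf F
  have hpF := Fact.mk hp
  have hq : 1 < Fintype.card F := Fintype.one_lt_card
  have hf1 : ∀ k : ℕ, p = 2 → f * (2 * k) = 6 → 2 ≤ k → k ≤ 4 → k = 3 ∧ Fintype.card F = 2 := by
    intro k hp2 h hk hk4
    have h1 : f * k = 3 := by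
      have : f * (2 * k) = 2 * (f * k) := by ring
      omega
    have h3 : k ∣ 3 := ⟨f, by rw [← h1, mul_comm]⟩
    have h4 : k = 3 := by
      rcases (Nat.dvd_prime Nat.prime_three).1 h3 with h | h
      · omega
      · exact h
    subst h4
    have h5 : f = 1 := by omega
    exact ⟨rfl, by rw [hF, hp2, h5]; rfl⟩
  obtain ⟨r, hr, he, hfr, hrp⟩ := ppd (p := p) (f := f) (n := 2 * m) hp hf (by omega) (by
    rintro ⟨hp2, h⟩
    have hm4 : m ≤ 4 := by
      by_contra h4
      have : 1 * (2 * 5) ≤ f * (2 * m) := Nat.mul_le_mul hf (by omega)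
      omega
    have := hf1 m hp2 h (by omega) hm4
    exact h2 ⟨this.2, hm4⟩)
  obtain ⟨s, hs, hfo, hfs, hsp⟩ := ppd (p := p) (f := f) (n := 2 * (m - 1)) hp hf (by omega) (by
    rintro ⟨hp2, h⟩
    have hm4 : m - 1 ≤ 4 := by
      by_contra h4
      have : 1 * (2 * 5) ≤ f * (2 * (m - 1)) := Nat.mul_le_mul hf (by omega)
      omega
    have := hf1 (m - 1) hp2 h (by omega) hm4
    exact h2 ⟨this.2, by omega⟩)
  rw [← hF] at he hfo
  have hrn := lt_prime hr he (by omega)
  have hsn := lt_prime hs hfo (by omega)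
  have hrs : r ≠ s := by
    intro h
    rw [h, hfo] at he
    omega
  have hιc : Fintype.card (Fin m ⊕ Fin m) = 2 * m := by
    rw [Fintype.card_sum, Fintype.card_fin]; ring
  have hcen := Cfsg.Agent.S0246.result (F := F) rfl m (by omega)
  have hrG := (dvd_pow_sub_one (by omega) he).trans (pow_sub_one_dvd_card_Sp (F := F) rfl (j := m) (by omega) le_rfl)
  have hsG := (dvd_pow_sub_one (by omega) hfo).trans
    (pow_sub_one_dvd_card_Sp (F := F) (m := m) rfl (j := m - 1) (by omega) (by omega))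
  have hrT := dvd_card_quot_center hr hrG (by
    rw [hcen]
    exact fun h => not_dvd_pred hq.le he (by omega) (h.trans (Nat.gcd_dvd_right _ _)))
  have hsT := dvd_card_quot_center hs hsG (by
    rw [hcen]
    exact fun h => not_dvd_pred hq.le hfo (by omega) (h.trans (Nat.gcd_dvd_right _ _)))
  have hsimple : IsSimpleGroup (Cfsg.PSp m F) := Cfsg.Agent.S0270.result m (by omega) (fun h => by omega)
  have hAut := Cfsg.Agent.S0814.result (F := F) p f hf hF m (by omega) (fun h => by omega)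
  rw [if_neg (by omega), one_mul] at hAut
  -- the greatest common divisor
  have hg2 : Nat.gcd 2 (p ^ f - 1) ∣ 2 := Nat.gcd_dvd_left _ _
  have hgp : ¬ p ∣ Nat.gcd 2 (p ^ f - 1) := by
    intro h
    have h1 : p ∣ p ^ f - 1 := h.trans (Nat.gcd_dvd_right _ _)
    have h3 : p ∣ p ^ f := dvd_pow_self p (by omega)
    have h4 : 1 ≤ p ^ f := Nat.one_le_pow _ _ hp.pos
    have h5 : p ∣ p ^ f - (p ^ f - 1) := Nat.dvd_sub h3 h1
    rw [Nat.sub_sub_self h4] at h5
    exact hp.one_lt.ne' (Nat.dvd_one.1 h5)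
  have hout : ∀ t : ℕ, t.Prime → 2 < t → f < t → ¬ t ∣ Nat.gcd 2 (p ^ f - 1) * f := by
    intro t ht ht2 htf h
    rcases (Nat.Prime.dvd_mul ht).1 h with h' | h'
    · have := Nat.le_of_dvd two_pos (h'.trans hg2)
      omega
    · have := Nat.le_of_dvd (by omega) h'
      omega
  have hfr' : f < r := lt_of_le_of_lt (Nat.le_mul_of_pos_right f (by omega)) hfr
  have hfs' : f < s := lt_of_le_of_lt (Nat.le_mul_of_pos_right f (by omega)) hfs
  refine nf_quot hsimple hr hs hrs hrT hsT (sep_pair (spHom_injective m F) hm (by omega) hr hs he hfo)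
    (bd_aniso hB hA (spHom_injective m F) (polSp m F) polSp_inv (fun _ _ => rfl) hr hp hrp hF he (by omega) (by omega))
    (bd_witt hB hW (spHom_injective m F) (polSp m F) polSp_inv (fun _ _ => rfl) hs hp hsp hF hfo (by omega) (by omega))
    hAut (hout r hr (by omega) hfr') (hout s hs (by omega) hfs') ?_
  -- the numbers
  have hord : (Nat.card (Cfsg.PSp m F)).factorization p = f * m ^ 2 := by
    have h1 := Cfsg.Agent.S0245.result (F := F) rfl m
    have h3 := Subgroup.card_eq_card_quotient_mul_card_subgroup (Subgroup.center (Matrix.symplecticGroup (Fin m) F))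
    rw [h1, hcen] at h3
    refine fac_of_mul (g := Nat.gcd 2 (Fintype.card F - 1)) hp hF ?_ (by rw [hF]; exact hgp)
      (not_dvd_prod (k := m) hp (by rw [hF]; exact dvd_pow_self p (by omega)) hq.le)
    rw [h3, mul_comm]
  have hg0 : Nat.gcd 2 (p ^ f - 1) ≠ 0 := (Nat.gcd_pos_of_pos_left _ two_pos).ne'
  rw [hord, hιc, fac_two_mul hp (by omega), fac_two_mul hp (by omega), Nat.factorization_mul hg0 (by omega),
    Finsupp.add_apply, Nat.factorization_eq_zero_of_not_dvd hgp, zero_add]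
  have h3 := fac_pair (p := p) (m := m) hp (by omega)
  have h4 : f.factorization p < f := Nat.factorization_lt p (by omega)
  obtain ⟨k, rfl⟩ : ∃ k, m = k + 3 := ⟨m - 3, by omega⟩
  have e1 : k + 3 - 1 = k + 2 := by omega
  have e2 : 2 * (k + 3) - 1 = 2 * k + 5 := by omega
  rw [e1] at h3 ⊢
  rw [e2]
  have key : (if p = 2 then 4 else 0) + (k + 2) + (f - 1) + f * (2 * k + 5) < f * (k + 3) ^ 2 := by
    split_ifs with hp2
    · have hfk : 2 ≤ f ∨ 2 ≤ k := by
        by_contra hcon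
        push Not at hcon
        have : f = 1 := by omega
        exact h2 ⟨by rw [hF, hp2, this]; rfl, by omega⟩
      obtain ⟨g, rfl⟩ : ∃ g, f = g + 1 := ⟨f - 1, by omega⟩
      rcases hfk with h | h
      · obtain ⟨g', rfl⟩ : ∃ g', g = g' + 1 := ⟨g - 1, by omega⟩
        simp only [Nat.add_sub_cancel]
        nlinarith [Nat.zero_le (g' * k), Nat.zero_le (g' * k ^ 2), Nat.zero_le (k ^ 2)]
      · obtain ⟨k', rfl⟩ : ∃ k', k = k' + 2 := ⟨k - 2, by omega⟩
        simp only [Nat.add_sub_cancel]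
        nlinarith [Nat.zero_le (g * k'), Nat.zero_le (g * k' ^ 2), Nat.zero_le (k' ^ 2)]
    · obtain ⟨g, rfl⟩ : ∃ g, f = g + 1 := ⟨f - 1, by omega⟩
      simp only [Nat.add_sub_cancel]
      nlinarith [Nat.zero_le (g * k), Nat.zero_le (g * k ^ 2), Nat.zero_le (k ^ 2)]
  split_ifs at key ⊢ <;> omega

/-- **Row `PΩ_(2m+1)(q)`, `m ≥ 3`, `q` odd.** -/
theorem oodd (hB : BdOfUnip) (hA : AnisoForm) (hW : WittOneForm) (F : Type) [Field F] [Fintype F] (m : ℕ)
    (hm : 3 ≤ m) (hodd : Odd (Fintype.card F)) : NF (Cfsg.POmega F (Cfsg.quadFormOdd m F)) := by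
  obtain ⟨p, f, hp, hf, hF⟩ := exists_pf F
  have hpF := Fact.mk hp
  have hq : 1 < Fintype.card F := Fintype.one_lt_card
  have hp2 : p ≠ 2 := by
    rintro rfl
    rw [hF] at hodd
    exact (Nat.not_odd_iff_even.2 ((even_two).pow_of_ne_zero (by omega))) hodd
  have hpodd : Odd p := hp.odd_of_ne_two hp2
  obtain ⟨r, hr, he, hfr, hrp⟩ := ppd (p := p) (f := f) (n := 2 * m) hp hf (by omega) (fun h => hp2 h.1)
  obtain ⟨s, hs, hfo, hfs, hsp⟩ := ppd (p := p) (f := f) (n := 2 * (m - 1)) hp hf (by omega) (fun h => hp2 h.1)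
  rw [← hF] at he hfo
  have hrn := lt_prime hr he (by omega)
  have hsn := lt_prime hs hfo (by omega)
  have hrs : r ≠ s := by
    intro h
    rw [h, hfo] at he
    omega
  have hιc : Fintype.card (Unit ⊕ (Fin m ⊕ Fin m)) = 2 * m + 1 := by
    simp only [Fintype.card_sum, Fintype.card_fin, Fintype.card_unit]; ring
  have hcard := Cfsg.Agent.S0292.result (F := F) rfl hodd m hm
  have hdvd : ∀ j t : ℕ, t.Prime → t ≠ 2 → orderOf ((Fintype.card F : ℕ) : ZMod t) = 2 * j → 1 ≤ j → j ≤ m →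
      t ∣ Nat.card (Cfsg.POmega F (Cfsg.quadFormOdd m F)) := by
    intro j t ht ht2 hord hj hjm
    refine dvd_of_dvd_four_mul (g := 2) ht ht2 (by norm_num) ?_
    rw [hcard]
    exact Dvd.dvd.mul_left ((dvd_pow_sub_one hq.le hord).trans (dvd_prod_factor hj hjm)) _
  have hrT := hdvd m r hr (by omega) he (by omega) le_rfl
  have hsT := hdvd (m - 1) s hs (by omega) hfo (by omega) (by omega)
  have hsimple : IsSimpleGroup (Cfsg.POmega F (Cfsg.quadFormOdd m F)) := Cfsg.Agent.S0295.result hodd m hm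
  have hAut := Cfsg.Agent.S0816.result (F := F) p f hf hF hpodd m hm
  have hout : ∀ t : ℕ, t.Prime → 2 < t → f < t → ¬ t ∣ 2 * f := by
    intro t ht ht2 htf h
    rcases (Nat.Prime.dvd_mul ht).1 h with h' | h'
    · have := Nat.le_of_dvd two_pos h'
      omega
    · have := Nat.le_of_dvd (by omega) h'
      omega
  have hfr' : f < r := lt_of_le_of_lt (Nat.le_mul_of_pos_right f (by omega)) hfr
  have hfs' : f < s := lt_of_le_of_lt (Nat.le_mul_of_pos_right f (by omega)) hfs
  have h2F : (2 : F) ≠ 0 := by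
    have := cast_ne_zero (F := F) Nat.prime_two (fun h => by
      rw [hF] at h
      exact hp2 ((Nat.prime_dvd_prime_iff_eq Nat.prime_two hp).1 (Nat.prime_two.dvd_of_dvd_pow h)).symm)
    exact_mod_cast this
  have hND := Cfsg.Agent.LieClassical.OrthForms.nondeg_oddForm (m := m) (F := F) h2F
  have hco := Cfsg.Agent.LieClassical.OrthForms.coe_oddForm (m := m) (F := F)
  have hβ := polQuad_inv _ hND hco
  have hκ : ∀ (g : Cfsg.Omega F (Cfsg.quadFormOdd m F)) (u : Unit ⊕ (Fin m ⊕ Fin m) → F),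
      (polQuad _ hND).κ ((omHom (Cfsg.quadFormOdd m F) g).mulVec u) = (polQuad _ hND).κ u := by
    intro g u
    change (Cfsg.Agent.LieClassical.OrthForms.oddForm m F) _ = (Cfsg.Agent.LieClassical.OrthForms.oddForm m F) u
    rw [hco]
    exact omHom_inv _ g u
  refine nf_quot hsimple hr hs hrs hrT hsT
    (sep_pair (omHom_injective (Cfsg.quadFormOdd m F)) hm (by omega) hr hs he hfo)
    (bd_aniso hB hA (omHom_injective (Cfsg.quadFormOdd m F)) (polQuad _ hND) hβ hκ hr hp hrp hF he (by omega) (by omega))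
    (bd_witt hB hW (omHom_injective (Cfsg.quadFormOdd m F)) (polQuad _ hND) hβ hκ hs hp hsp hF hfo (by omega) (by omega))
    hAut (hout r hr (by omega) hfr') (hout s hs (by omega) hfs') ?_
  have h2p : ¬ p ∣ 2 := fun h => hp2 ((Nat.prime_dvd_prime_iff_eq hp Nat.prime_two).1 h)
  have hord : (Nat.card (Cfsg.POmega F (Cfsg.quadFormOdd m F))).factorization p = f * m ^ 2 :=
    fac_of_mul (g := 2) hp hF hcard h2p
      (not_dvd_prod (k := m) hp (by rw [hF]; exact dvd_pow_self p (by omega)) hq.le)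
  rw [hord, hιc, fac_two_mul hp (by omega), fac_two_mul hp (by omega), fac_two_mul hp (by omega)]
  simp only [if_neg hp2]
  have h3 := fac_pair (p := p) (m := m) hp (by omega)
  have h4 : f.factorization p < f := Nat.factorization_lt p (by omega)
  obtain ⟨k, rfl⟩ : ∃ k, m = k + 3 := ⟨m - 3, by omega⟩
  have e1 : k + 3 - 1 = k + 2 := by omega
  have e2 : 2 * (k + 3) + 1 - 1 = 2 * k + 6 := by omega
  rw [e1] at h3 ⊢
  rw [e2]
  have key : (k + 2) + (f - 1) + f * (2 * k + 6) < f * (k + 3) ^ 2 := by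
    obtain ⟨g, rfl⟩ : ∃ g, f = g + 1 := ⟨f - 1, by omega⟩
    simp only [Nat.add_sub_cancel]
    nlinarith [Nat.zero_le (g * k), Nat.zero_le (g * k ^ 2), Nat.zero_le (k ^ 2)]
  omega

end Cfsg.Agent.H198.NFC
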